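import Cfsg.Agent.Lib.Helper51.Sing.B1

set_option autoImplicit false

namespace Cfsg.Agent.Lib.Helper51.Sing

open Cfsg Cfsg.Geo Matrix Cfsg.Agent.Lib.Helper67.Elus
open scoped MatrixGroups

variable {F : Type*} [Field F] {n : ℕ} {K : Subalgebra F (Matrix (Fin n) (Fin n) F)}

/-- [B2] eigenspaces (eigenvalue in `F`) of a non-scalar element of `N(K)` are lines.
Write `G = ↑g`, `G' = ↑g⁻¹`.  `l ≠ 0` (else `v = G' G v = 0`).  `w = κ v`, `κ ∈ K`
(`exists_K_mulVec hK hv w`).  `κ' := G κ G' ∈ K` (`(hg κ).1`).  `κ' (G v) = G κ v = G w = l • κ v`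
and `κ' (G v) = l • κ' v`, so `κ' v = κ v`, so `κ' = κ` (`K_mulVec_inj`), so `G κ = κ G`.
`cent_cases hn hK G`: first case `κ = a • 1`, `w = a • v`.  Second case: every `u` is `k v`,
`G u = G k v = k G v = l • u`, so `G = l • 1`, against `hns l`. -/
theorem eig_bound [NeZero n] (hn : n.Prime) (hK : IsFieldSubalgebra n K) (g : GL (Fin n) F)
    (hg : g ∈ subalgebraNormalizer K)
    (hns : ∀ z : F, (g : Matrix (Fin n) (Fin n) F) ≠ z • (1 : Matrix (Fin n) (Fin n) F))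
    (l : F) (v w : Fin n → F) (hv : v ≠ 0)
    (hgv : (g : Matrix (Fin n) (Fin n) F) *ᵥ v = l • v)
    (hgw : (g : Matrix (Fin n) (Fin n) F) *ᵥ w = l • w) : ∃ a : F, w = a • v := by
  have h1 : (g : Matrix (Fin n) (Fin n) F) * ((g⁻¹ : GL (Fin n) F) : Matrix (Fin n) (Fin n) F) = 1 := by
    rw [← Units.val_mul, mul_inv_cancel, Units.val_one]
  have h2 : ((g⁻¹ : GL (Fin n) F) : Matrix (Fin n) (Fin n) F) * (g : Matrix (Fin n) (Fin n) F) = 1 := by
    rw [← Units.val_mul, inv_mul_cancel, Units.val_one]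
  have hg' : ∀ k : Matrix (Fin n) (Fin n) F, k ∈ K →
      (g : Matrix (Fin n) (Fin n) F) * k * ((g⁻¹ : GL (Fin n) F) : Matrix (Fin n) (Fin n) F) ∈ K :=
    fun k hk => (hg k).1 hk
  generalize ((g⁻¹ : GL (Fin n) F) : Matrix (Fin n) (Fin n) F) = G' at h1 h2 hg'
  generalize (g : Matrix (Fin n) (Fin n) F) = G at h1 h2 hg' hns hgv hgw
  have hl : l ≠ 0 := by
    intro h0
    apply hv
    rw [h0, zero_smul] at hgv
    rw [← Matrix.one_mulVec v, ← h2, ← Matrix.mulVec_mulVec, hgv, Matrix.mulVec_zero]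
  obtain ⟨κ, hκ, rfl⟩ := exists_K_mulVec hK hv w
  have h3 : (G * κ * G') *ᵥ v = κ *ᵥ v := by
    have h4 : (G * κ * G') *ᵥ (G *ᵥ v) = l • (κ *ᵥ v) := by
      rw [Matrix.mulVec_mulVec, Matrix.mul_assoc, h2, Matrix.mul_one, ← Matrix.mulVec_mulVec, hgw]
    rw [hgv, Matrix.mulVec_smul] at h4
    exact smul_right_injective _ hl h4
  have h5 : G * κ * G' = κ := K_mulVec_inj hK hv (hg' κ hκ) hκ h3
  have h6 : G * κ = κ * G := by
    conv_rhs => rw [← h5]
    rw [Matrix.mul_assoc, h2, Matrix.mul_one]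
  rcases cent_cases hn hK G with h | h
  · obtain ⟨a, ha⟩ := h κ hκ h6
    exact ⟨a, by rw [ha, Matrix.smul_mulVec, Matrix.one_mulVec]⟩
  · exfalso
    apply hns l
    apply Matrix.toLin'.injective
    apply LinearMap.ext
    intro u
    obtain ⟨k, hk, rfl⟩ := exists_K_mulVec hK hv u
    rw [Matrix.toLin'_apply, Matrix.toLin'_apply, Matrix.mulVec_mulVec, h k hk,
      ← Matrix.mulVec_mulVec, hgv, Matrix.mulVec_smul, Matrix.smul_mulVec, Matrix.one_mulVec]

end Cfsg.Agent.Lib.Helper51.Sing
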