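import Cfsg.Agent.Lib.Helper51.Sing.Base

set_option autoImplicit false

namespace Cfsg.Agent.Lib.Helper51.Sing

open Cfsg Cfsg.Geo Matrix Cfsg.Agent.Lib.Helper67.Elus
open scoped MatrixGroups

variable {F : Type*} [Field F] {n : ℕ} {K : Subalgebra F (Matrix (Fin n) (Fin n) F)}

/-- [C1] padding by an identity block of size `n - m ≥ 2`.
`φ : ((Fin m → F) × (Fin (n - m) → F)) ≃ₗ[F] (Fin n → F) := LinearEquiv.ofFinrankEq _ _ _`,
`T₀ := LinearMap.prodMap T0 LinearMap.id`, `T := φ.conjAlgEquiv F T₀` (pattern: `model_S6` in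
`Cfsg/Agent/Lib/Helper67/Elus/S6.lean`).  `(T₀ ^ k) x = ((T0 ^ k) x.1, x.2)` by induction.
`det`: `LinearMap.det_conj`, `LinearMap.det_prodMap`.  `v = φ (0, Pi.single ⟨0, _⟩ 1)`,
`w = φ (0, Pi.single ⟨1, _⟩ 1)`.  Non-scalar: `T = z • 1` applied to `v` gives `z = 1`, so `T = 1`, so
`T0 = 1`. -/
theorem pad {m r : ℕ} (hmn : m + 2 ≤ n) (T0 : Module.End F (Fin m → F)) (hT0 : T0 ^ r = 1)
    (hdet : LinearMap.det T0 = 1) (hne : T0 ≠ 1) :
    ∃ T : Module.End F (Fin n → F), T ^ r = 1 ∧ LinearMap.det T = 1 ∧ (∀ z : F, T ≠ z • 1) ∧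
      ∃ v w : Fin n → F, v ≠ 0 ∧ (∀ a : F, w ≠ a • v) ∧ T v = v ∧ T w = w := by
  obtain ⟨e, rfl⟩ : ∃ e, n = m + (e + 2) := ⟨n - m - 2, by omega⟩
  have hE : Module.finrank F ((Fin m → F) × (Fin (e + 2) → F)) =
      Module.finrank F (Fin (m + (e + 2)) → F) := by
    rw [Module.finrank_prod, Module.finrank_fin_fun, Module.finrank_fin_fun,
      Module.finrank_fin_fun]
  let φ : ((Fin m → F) × (Fin (e + 2) → F)) ≃ₗ[F] (Fin (m + (e + 2)) → F) :=
    LinearEquiv.ofFinrankEq _ _ hE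
  let T₀ : Module.End F ((Fin m → F) × (Fin (e + 2) → F)) := LinearMap.prodMap T0 LinearMap.id
  have hT₀ : ∀ x, T₀ x = (T0 x.1, x.2) := fun x => rfl
  have hpow : ∀ (k : ℕ) x, (T₀ ^ k) x = ((T0 ^ k) x.1, x.2) := by
    intro k
    induction k with
    | zero => intro x; simp
    | succ k ih =>
      intro x
      rw [pow_succ', Module.End.mul_apply, ih, hT₀, pow_succ', Module.End.mul_apply]
  have hT₀r : T₀ ^ r = 1 := LinearMap.ext fun x => by
    rw [hpow, hT0]; rfl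
  have hT : ∀ y, (φ.conjAlgEquiv F T₀) y = φ (T₀ (φ.symm y)) := fun y => rfl
  have hTr : (φ.conjAlgEquiv F T₀) ^ r = 1 := by rw [← map_pow, hT₀r, map_one]
  have hfix : ∀ y : Fin (e + 2) → F, (φ.conjAlgEquiv F T₀) (φ (0, y)) = φ (0, y) := by
    intro y
    rw [hT, φ.symm_apply_apply, hT₀, map_zero]
  have hv : φ ((0 : Fin m → F), (Pi.single 0 1 : Fin (e + 2) → F)) ≠ 0 := by
    intro h
    have h1 := (φ.map_eq_zero_iff).1 h
    have h2 := congrFun (congrArg Prod.snd h1) 0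
    simp at h2
  refine ⟨φ.conjAlgEquiv F T₀, hTr, ?_, ?_, φ (0, Pi.single 0 1), φ (0, Pi.single 1 1), hv, ?_,
    hfix _, hfix _⟩
  · have h1 : (φ.conjAlgEquiv F T₀) = (φ : _ →ₗ[F] _) ∘ₗ T₀ ∘ₗ (φ.symm : _ →ₗ[F] _) := rfl
    rw [h1, LinearMap.det_conj, LinearMap.det_prodMap, hdet, LinearMap.det_id, one_mul]
  · intro z hz
    have h1 := hfix (Pi.single 0 1)
    rw [hz, LinearMap.smul_apply, Module.End.one_apply] at h1
    have h2 : (z - 1) • φ ((0 : Fin m → F), (Pi.single 0 1 : Fin (e + 2) → F)) = 0 := by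
      rw [sub_smul, one_smul, h1, sub_self]
    have h3 : z = 1 := sub_eq_zero.1 ((smul_eq_zero.1 h2).resolve_right hv)
    apply hne
    apply LinearMap.ext
    intro y
    have h4 : (φ.conjAlgEquiv F T₀) (φ (y, 0)) = φ (y, 0) := by
      rw [hz, h3, one_smul, Module.End.one_apply]
    rw [hT, φ.symm_apply_apply, hT₀] at h4
    exact congrArg Prod.fst (φ.injective h4)
  · intro a ha
    rw [← map_smul] at ha
    have h1 := φ.injective ha
    have h2 := congrFun (congrArg Prod.snd h1) 1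
    simp at h2

end Cfsg.Agent.Lib.Helper51.Sing
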