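import Cfsg.Agent.Lib.Helper51.Sing.Base

set_option autoImplicit false

namespace Cfsg.Agent.Lib.Helper51.Sing

open Cfsg Cfsg.Geo Matrix Cfsg.Agent.Lib.Helper67.Elus
open scoped MatrixGroups

variable {F : Type*} [Field F] {n : ℕ} {K : Subalgebra F (Matrix (Fin n) (Fin n) F)}

/-- [C2a] `(q : ZMod n) ≠ 0`: otherwise `n ∣ q = p ^ f` (`FiniteField.card F p`), so `n = p`, so
`(n : F) = 0`.  Then `orderOf_dvd_of_pow_eq_one (ZMod.pow_card_sub_one_eq_one _)`. -/
theorem oq_dvd_pred [Fintype F] [Fact n.Prime] (hnF : (n : F) ≠ 0) : oq F n ∣ n - 1 := by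
  have hn : n.Prime := Fact.out
  obtain ⟨p, hchar⟩ := CharP.exists F
  obtain ⟨f, hp, hq⟩ := FiniteField.card F p
  have h0 : ((Fintype.card F : ℕ) : ZMod n) ≠ 0 := by
    intro h
    rw [ZMod.natCast_eq_zero_iff, hq] at h
    have h1 : n = p := (Nat.prime_dvd_prime_iff_eq hn hp).1 (hn.dvd_of_dvd_pow h)
    apply hnF
    rw [h1]
    exact CharP.cast_eq_zero F p
  exact orderOf_dvd_of_pow_eq_one (ZMod.pow_card_sub_one_eq_one h0)

end Cfsg.Agent.Lib.Helper51.Sing
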