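import Cfsg.Agent.Lib.Helper51.Sing.Base

set_option autoImplicit false

namespace Cfsg.Agent.Lib.Helper51.Sing

open Cfsg Cfsg.Geo Matrix Cfsg.Agent.Lib.Helper67.Elus
open scoped MatrixGroups

variable {F : Type*} [Field F] {n : ℕ} {K : Subalgebra F (Matrix (Fin n) (Fin n) F)}

/-- [C2b] `oq F n = 1` means `(q : ZMod n) = 1` (`orderOf_eq_one_iff`), so `n ∣ q - 1 = |Fˣ|`; Cauchy
(`exists_prime_orderOf_dvd_card'`) gives `ζ : Fˣ` of order `n`;
`T0 := Matrix.toLin' (Matrix.diagonal ![(ζ : F), (ζ⁻¹ : Fˣ)])`. -/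
theorem exists_small_one [Fintype F] [Fact n.Prime] (h1 : oq F n = 1) :
    ∃ T0 : Module.End F (Fin 2 → F), T0 ^ n = 1 ∧ LinearMap.det T0 = 1 ∧ T0 ≠ 1 := by
  classical
  have hn : n.Prime := Fact.out
  have hq1 : 1 ≤ Fintype.card F := Fintype.card_pos
  have h2 : ((Fintype.card F : ℕ) : ZMod n) = 1 := orderOf_eq_one_iff.1 h1
  have h3 : n ∣ Fintype.card F - 1 := by
    rw [← ZMod.natCast_eq_zero_iff, Nat.cast_sub hq1, h2, Nat.cast_one, sub_self]
  have hcard : Nat.card Fˣ = Fintype.card F - 1 := by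
    rw [Nat.card_units, Nat.card_eq_fintype_card]
  rw [← hcard] at h3
  obtain ⟨ζ, hζ⟩ := exists_prime_orderOf_dvd_card' n h3
  have hζn : ζ ^ n = 1 := by rw [← hζ]; exact pow_orderOf_eq_one ζ
  have hζ1 : ζ ≠ 1 := by
    intro h
    rw [h, orderOf_one] at hζ
    exact hn.one_lt.ne hζ
  have hpow : (Matrix.diagonal ![(ζ : F), ((ζ⁻¹ : Fˣ) : F)]) ^ n = 1 := by
    rw [Matrix.diagonal_pow, ← Matrix.diagonal_one]
    congr 1
    funext i
    fin_cases i
    · show (ζ : F) ^ n = 1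
      rw [← Units.val_pow_eq_pow_val, hζn, Units.val_one]
    · show ((ζ⁻¹ : Fˣ) : F) ^ n = 1
      rw [← Units.val_pow_eq_pow_val, inv_pow, hζn, inv_one, Units.val_one]
  refine ⟨Matrix.toLin' (Matrix.diagonal ![(ζ : F), ((ζ⁻¹ : Fˣ) : F)]), ?_, ?_, ?_⟩
  · have h4 : ∀ (A : Matrix (Fin 2) (Fin 2) F) (j : ℕ),
        (Matrix.toLin' A : Module.End F (Fin 2 → F)) ^ j = Matrix.toLin' (A ^ j) := by
      intro A j
      induction j with
      | zero => simp [Matrix.toLin'_one]; rfl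
      | succ j ih => rw [pow_succ, pow_succ, Matrix.toLin'_mul, ih]; rfl
    rw [h4, hpow, Matrix.toLin'_one]
    rfl
  · rw [LinearMap.det_toLin', Matrix.det_diagonal, Fin.prod_univ_two]
    show (ζ : F) * ((ζ⁻¹ : Fˣ) : F) = 1
    rw [← Units.val_mul, mul_inv_cancel, Units.val_one]
  · intro h
    apply hζ1
    have h5 : Matrix.diagonal ![(ζ : F), ((ζ⁻¹ : Fˣ) : F)] = 1 := by
      apply Matrix.toLin'.injective
      rw [h, Matrix.toLin'_one]
      rfl
    have h6 := congrFun (congrFun h5 0) 0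
    rw [Matrix.diagonal_apply_eq, Matrix.one_apply_eq] at h6
    exact Units.ext h6

end Cfsg.Agent.Lib.Helper51.Sing
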