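import Cfsg.Agent.Lib.Helper51.Sing.Base

set_option autoImplicit false

namespace Cfsg.Agent.Lib.Helper51.Sing

open Cfsg Cfsg.Geo Matrix Cfsg.Agent.Lib.Helper67.Elus
open scoped MatrixGroups

variable {F : Type*} [Field F] {n : ℕ} {K : Subalgebra F (Matrix (Fin n) (Fin n) F)}

/-- [D1] `frob : K →ₗ[F] K`, `k ↦ k ^ q` (additive: `K_add_pow_card hK`, homogeneous: `smul_pow_card`);
`G := (orbE hK hu) ∘ frob ∘ (orbE hK hu).symm`. -/
theorem exists_frobLin [Fintype F] (hK : IsFieldSubalgebra n K) {u : Fin n → F} (hu : u ≠ 0) :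
    ∃ G : Module.End F (Fin n → F), ∀ k ∈ K, G (k *ᵥ u) = (k ^ Fintype.card F) *ᵥ u := by
  let frob : K →ₗ[F] K :=
    { toFun := fun k => ⟨k.1 ^ Fintype.card F, K.pow_mem k.2 _⟩
      map_add' := fun a b => Subtype.ext (K_add_pow_card hK a.2 b.2)
      map_smul' := fun c a => Subtype.ext (smul_pow_card c a.1) }
  refine ⟨(orbE hK hu).toLinearMap ∘ₗ frob ∘ₗ (orbE hK hu).symm.toLinearMap, fun k hk => ?_⟩
  have h1 : (orbE hK hu).symm (k *ᵥ u) = ⟨k, hk⟩ := by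
    rw [LinearEquiv.symm_apply_eq, orbE_apply]
  simp only [LinearMap.comp_apply, LinearEquiv.coe_coe, h1]
  rfl

end Cfsg.Agent.Lib.Helper51.Sing
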