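import Cfsg.Agent.Lib.Helper51.Sing.Base

set_option autoImplicit false

namespace Cfsg.Agent.Lib.Helper51.Sing

open Cfsg Cfsg.Geo Matrix Cfsg.Agent.Lib.Helper67.Elus
open scoped MatrixGroups

variable {F : Type*} [Field F] {n : ℕ} {K : Subalgebra F (Matrix (Fin n) (Fin n) F)}

/-- [D2] induction on `j` (`pow_succ'`, `Module.End.mul_apply`, `K.pow_mem`, `pow_mul`). -/
theorem frobLin_pow [Fintype F] {u : Fin n → F} (G : Module.End F (Fin n → F))
    (hG : ∀ k ∈ K, G (k *ᵥ u) = (k ^ Fintype.card F) *ᵥ u) (j : ℕ) :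
    ∀ k ∈ K, (G ^ j) (k *ᵥ u) = (k ^ (Fintype.card F ^ j)) *ᵥ u := by
  induction j with
  | zero =>
    intro k _
    simp
  | succ j ih =>
    intro k hk
    rw [pow_succ', Module.End.mul_apply, ih k hk, hG _ (K.pow_mem hk _), ← pow_mul, ← pow_succ]

/-- [D2] every `x` is `k u` (`exists_K_mulVec`), `frobLin_pow` with `j = n`, `K_pow_card hK`. -/
theorem frobLin_pow_n [NeZero n] [Fintype F] (hK : IsFieldSubalgebra n K) {u : Fin n → F}
    (hu : u ≠ 0) (G : Module.End F (Fin n → F))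
    (hG : ∀ k ∈ K, G (k *ᵥ u) = (k ^ Fintype.card F) *ᵥ u) : G ^ n = 1 := by
  apply LinearMap.ext
  intro x
  obtain ⟨k, hk, rfl⟩ := exists_K_mulVec hK hu x
  rw [frobLin_pow G hG n k hk, K_pow_card hK hk, Module.End.one_apply]

end Cfsg.Agent.Lib.Helper51.Sing
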