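import Cfsg.Agent.Lib.Helper51.Sing.Base

set_option autoImplicit false

namespace Cfsg.Agent.Lib.Helper51.Sing

open Cfsg Cfsg.Geo Matrix Cfsg.Agent.Lib.Helper67.Elus
open scoped MatrixGroups

variable {F : Type*} [Field F] {n : ℕ} {K : Subalgebra F (Matrix (Fin n) (Fin n) F)}

/-- [D3] if `G = 1` then `k ^ q = k` for all `k ∈ K` (`K_mulVec_inj`).  With
`let _ := (isField_K hK).toField`, take a generator `γ` of the cyclic group `Kˣ`
(`IsCyclic.exists_generator`, `orderOf_eq_card_of_forall_mem_zpowers`, `card_units_K hK`):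
`γ ^ (q - 1) = 1`, so `q ^ n - 1 ∣ q - 1`, impossible for `n ≥ 2`, `q ≥ 2`. -/
theorem frobLin_ne_one [Fintype F] (hn : 2 ≤ n) (hK : IsFieldSubalgebra n K) {u : Fin n → F}
    (hu : u ≠ 0) (G : Module.End F (Fin n → F))
    (hG : ∀ k ∈ K, G (k *ᵥ u) = (k ^ Fintype.card F) *ᵥ u) : G ≠ 1 := by
  intro hG1
  have hn0 : NeZero n := ⟨by omega⟩
  have hfix : ∀ k ∈ K, k ^ Fintype.card F = k := by
    intro k hk
    have h1 := hG k hk
    rw [hG1, Module.End.one_apply] at h1
    exact (K_mulVec_inj hK hu hk (K.pow_mem hk _) h1).symm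
  let _ := (isField_K hK).toField
  have : Finite K := inferInstance
  have : Finite (K)ˣ := inferInstance
  obtain ⟨γ, hγ⟩ := IsCyclic.exists_generator (α := (K)ˣ)
  have hord : orderOf γ = Fintype.card F ^ n - 1 := by
    rw [orderOf_eq_card_of_forall_mem_zpowers hγ, card_units_K hK]
  have hq : 2 ≤ Fintype.card F := Fintype.one_lt_card
  have hγq : γ ^ (Fintype.card F - 1) = 1 := by
    have h1 : (γ : K) ^ Fintype.card F = (γ : K) := Subtype.ext (hfix _ (γ : K).2)
    have h2 : γ ^ Fintype.card F = γ := Units.ext (by rw [Units.val_pow_eq_pow_val, h1])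
    have h3 : γ ^ (Fintype.card F - 1) * γ = γ := by
      rw [← pow_succ, Nat.sub_add_cancel (by omega), h2]
    exact mul_eq_right.mp h3
  have hdvd := orderOf_dvd_of_pow_eq_one hγq
  rw [hord] at hdvd
  have hle := Nat.le_of_dvd (by omega) hdvd
  have hlt : Fintype.card F < Fintype.card F ^ n := by
    calc Fintype.card F = Fintype.card F ^ 1 := (pow_one _).symm
      _ < Fintype.card F ^ n := Nat.pow_lt_pow_right hq (by omega)
  omega

end Cfsg.Agent.Lib.Helper51.Sing
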