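import Cfsg.Agent.Lib.Helper51.Sing.Base

set_option autoImplicit false

namespace Cfsg.Agent.Lib.Helper51.Sing

open Cfsg Cfsg.Geo Matrix Cfsg.Agent.Lib.Helper67.Elus
open scoped MatrixGroups

variable {F : Type*} [Field F] {n : ℕ} {K : Subalgebra F (Matrix (Fin n) (Fin n) F)}

/-- [D4] `x = k' u`; `G (k k' u) = (k k') ^ q u = k ^ q (k' ^ q u) = k ^ q G (k' u)`
(`(hK.comm ..).mul_pow` i.e. `Commute.mul_pow`, `Matrix.mulVec_mulVec`). -/
theorem frobLin_mul [Fintype F] (hK : IsFieldSubalgebra n K) {u : Fin n → F}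
    (hu : u ≠ 0) (G : Module.End F (Fin n → F))
    (hG : ∀ k ∈ K, G (k *ᵥ u) = (k ^ Fintype.card F) *ᵥ u) :
    ∀ k ∈ K, ∀ x, G (k *ᵥ x) = (k ^ Fintype.card F) *ᵥ G x := by
  intro k hk x
  obtain ⟨k', hk', rfl⟩ := exists_K_mulVec hK hu x
  rw [Matrix.mulVec_mulVec, hG _ (K.mul_mem hk hk'), hG _ hk', Matrix.mulVec_mulVec,
    (show Commute k k' from hK.comm k hk k' hk').mul_pow]

end Cfsg.Agent.Lib.Helper51.Sing
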