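import Cfsg.Agent.Lib.Helper51.Sing.Base

set_option autoImplicit false

namespace Cfsg.Agent.Lib.Helper51.Sing

open Cfsg Cfsg.Geo Matrix Cfsg.Agent.Lib.Helper67.Elus
open scoped MatrixGroups

variable {F : Type*} [Field F] {n : ℕ} {K : Subalgebra F (Matrix (Fin n) (Fin n) F)}

/-- [D5] `(→)` `g k g⁻¹ = k ^ s g g⁻¹ = k ^ s ∈ K`.  `(←)` by induction `g ^ j * k = k ^ (s ^ j) * g ^ j`
for `k ∈ K`; `g⁻¹ = g ^ m`; if `k' := g k g⁻¹ ∈ K` then `k = g⁻¹ k' g = g ^ m k' g = k' ^ (s ^ m) ∈ K`. -/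
theorem mem_normalizer_of_semilinear (g : GL (Fin n) F) (m s : ℕ) (hm : g ^ (m + 1) = 1)
    (h : ∀ k ∈ K, (g : Matrix (Fin n) (Fin n) F) * k = k ^ s * (g : Matrix (Fin n) (Fin n) F)) :
    g ∈ subalgebraNormalizer K := by
  have hgi : (g : Matrix (Fin n) (Fin n) F) * ((g⁻¹ : GL (Fin n) F) : Matrix (Fin n) (Fin n) F) = 1 := by
    rw [← Units.val_mul, mul_inv_cancel, Units.val_one]
  have hig : ((g⁻¹ : GL (Fin n) F) : Matrix (Fin n) (Fin n) F) * (g : Matrix (Fin n) (Fin n) F) = 1 := by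
    rw [← Units.val_mul, inv_mul_cancel, Units.val_one]
  have hpow : ∀ j : ℕ, ∀ k ∈ K, (g : Matrix (Fin n) (Fin n) F) ^ j * k
      = k ^ (s ^ j) * (g : Matrix (Fin n) (Fin n) F) ^ j := by
    intro j
    induction j with
    | zero => intro k _; simp
    | succ j ih =>
      intro k hk
      rw [pow_succ', mul_assoc, ih k hk, ← mul_assoc, h _ (K.pow_mem hk _), ← pow_mul, ← pow_succ,
        mul_assoc]
  have hinv : ((g⁻¹ : GL (Fin n) F) : Matrix (Fin n) (Fin n) F) = (g : Matrix (Fin n) (Fin n) F) ^ m := by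
    have h1 : g⁻¹ = g ^ m := by
      rw [inv_eq_iff_mul_eq_one, ← pow_succ', hm]
    rw [h1, Units.val_pow_eq_pow_val]
  intro k
  constructor
  · intro hk
    rw [h k hk, mul_assoc, hgi, mul_one]
    exact K.pow_mem hk _
  · intro hk
    have h2 := hpow m _ hk
    rw [← hinv] at h2
    have h3 : ((g⁻¹ : GL (Fin n) F) : Matrix (Fin n) (Fin n) F) *
        ((g : Matrix (Fin n) (Fin n) F) * k * ((g⁻¹ : GL (Fin n) F) : Matrix (Fin n) (Fin n) F)) *
        (g : Matrix (Fin n) (Fin n) F) = k := by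
      calc _ = (((g⁻¹ : GL (Fin n) F) : Matrix (Fin n) (Fin n) F) * (g : Matrix (Fin n) (Fin n) F)) * k *
          (((g⁻¹ : GL (Fin n) F) : Matrix (Fin n) (Fin n) F) * (g : Matrix (Fin n) (Fin n) F)) := by
            simp only [mul_assoc]
        _ = k := by rw [hig, one_mul, mul_one]
    rw [h2, mul_assoc, hig, mul_one] at h3
    rw [← h3]
    exact K.pow_mem hk _

end Cfsg.Agent.Lib.Helper51.Sing
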