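import Cfsg.Agent.Lib.Helper51.Sing.Base
import Cfsg.Agent.Lib.Helper67.Elus.S2

set_option autoImplicit false

namespace Cfsg.Agent.Lib.Helper51.Sing

open Cfsg Cfsg.Geo Matrix Cfsg.Agent.Lib.Helper67.Elus
open scoped MatrixGroups

variable {F : Type*} [Field F] {n : ℕ} {K : Subalgebra F (Matrix (Fin n) (Fin n) F)}

/-- [E2] `oq_dvd_finrank hT hZ`: `n - 1 ∣ finrank Z`, `0 < finrank Z ≤ finrank W = n - 1`, so equal;
`Submodule.eq_of_le_of_finrank_eq`. -/
theorem inv_eq_of_le [Fintype F] [Fact n.Prime] (hi : oq F n = n - 1)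
    (T : Module.End F (Fin n → F)) (hT : T ^ n = 1) (W : Submodule F (Fin n → F))
    (hWd : Module.finrank F W = n - 1) (hfix : ∀ w ∈ W, T w = w → w = 0)
    (Z : Submodule F (Fin n → F)) (hZW : Z ≤ W) (hZ : Inv T Z) (hZ0 : Z ≠ ⊥) : Z = W := by
  have hfixZ : ∀ w ∈ Z, T w = w → w = 0 := fun w hw => hfix w (hZW hw)
  have hdvd := oq_dvd_finrank hT hZ hfixZ
  rw [hi] at hdvd
  have hpos : 0 < Module.finrank F Z := by
    rw [Module.finrank_pos_iff_exists_ne_zero]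
    obtain ⟨z, hz, hz0⟩ := Submodule.exists_mem_ne_zero_of_ne_bot hZ0
    exact ⟨⟨z, hz⟩, fun h => hz0 (congrArg Subtype.val h)⟩
  have hle : Module.finrank F Z ≤ n - 1 := hWd ▸ Submodule.finrank_mono hZW
  have heq : Module.finrank F Z = n - 1 := le_antisymm hle (Nat.le_of_dvd hpos hdvd)
  exact Submodule.eq_of_le_of_finrank_eq hZW (heq.trans hWd.symm)

end Cfsg.Agent.Lib.Helper51.Sing
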