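import Cfsg.Agent.Lib.Helper51.Sing.Base

set_option autoImplicit false

namespace Cfsg.Agent.Lib.Helper51.Sing

open Cfsg Cfsg.Geo Matrix Cfsg.Agent.Lib.Helper67.Elus
open scoped MatrixGroups

variable {F : Type*} [Field F] {n : ℕ} {K : Subalgebra F (Matrix (Fin n) (Fin n) F)}

/-- [E3a] `Submodule.span_induction`; `T (T ^ j v) = T ^ (j + 1) v`, and `T ^ n v = v = T ^ 0 v`. -/
theorem span_orbit_inv {V : Type*} [AddCommGroup V] [Module F V] (T : Module.End F V)
    (hT : T ^ n = 1) (v : V) :
    Inv T (Submodule.span F (Set.range fun j : Fin n => (T ^ (j : ℕ)) v)) := by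
  intro x hx
  induction hx using Submodule.span_induction with
  | mem x hx =>
    obtain ⟨j, rfl⟩ := hx
    show T ((T ^ (j : ℕ)) v) ∈ _
    rw [← Module.End.mul_apply, ← pow_succ']
    by_cases hj : (j : ℕ) + 1 < n
    · exact Submodule.subset_span ⟨⟨(j : ℕ) + 1, hj⟩, rfl⟩
    · have hj' : (j : ℕ) + 1 = n := by have := j.2; omega
      rw [hj', hT]
      have hn : 0 < n := by omega
      exact Submodule.subset_span ⟨⟨0, hn⟩, by simp⟩
  | zero => rw [map_zero]; exact Submodule.zero_mem _
  | add x y _ _ hx hy => rw [map_add]; exact Submodule.add_mem _ hx hy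
  | smul c x _ hx => rw [map_smul]; exact Submodule.smul_mem _ c hx

/-- [E3a] `map_sum`, `Finset.sum_range_succ`, `Finset.sum_range_succ'`. -/
theorem sum_pow_fixed {V : Type*} [AddCommGroup V] [Module F V] (T : Module.End F V)
    (hT : T ^ n = 1) (w : V) :
    T (∑ j ∈ Finset.range n, (T ^ j) w) = ∑ j ∈ Finset.range n, (T ^ j) w := by
  rw [map_sum]
  have h1 : ∀ j, T ((T ^ j) w) = (T ^ (j + 1)) w := by
    intro j
    rw [← Module.End.mul_apply, ← pow_succ']
  simp only [h1]
  have h2 := Finset.sum_range_succ (fun j => (T ^ j) w) n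
  have h3 := Finset.sum_range_succ' (fun j => (T ^ j) w) n
  rw [h2] at h3
  simp only [hT, pow_zero] at h3
  exact (add_right_cancel h3).symm

end Cfsg.Agent.Lib.Helper51.Sing
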