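import Cfsg.Agent.Lib.Helper51.Sing.E1
import Cfsg.Agent.Lib.Helper51.Sing.E2
import Cfsg.Agent.Lib.Helper51.Sing.E3a

set_option autoImplicit false

namespace Cfsg.Agent.Lib.Helper51.Sing

open Cfsg Cfsg.Geo Matrix Cfsg.Agent.Lib.Helper67.Elus
open scoped MatrixGroups

variable {F : Type*} [Field F] {n : ℕ} {K : Subalgebra F (Matrix (Fin n) (Fin n) F)}

/-- [E3] `v0, W` from `fx_structure`; `w ∈ W`, `w ≠ 0` (finrank `n - 1 > 0`); `v := v0 + w`;
`Z := span {T ^ j v | j < n}`, invariant by `span_orbit_inv`.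
`∑_{j<n} T ^ j v = n • v0 + ∑_{j<n} T ^ j w`; the last sum lies in `W`, is fixed (`sum_pow_fixed`), so is `0`.
So `n • v0 ∈ Z`, `v0 ∈ Z`, `w = v - v0 ∈ Z`.  `Z ⊓ W` is invariant, `≠ ⊥`, so `= W` (`inv_eq_of_le`): `W ≤ Z`.
`v0 ∈ Z`, `v0 ∉ W` (fixed and non-zero), so `W < Z`, `finrank Z > n - 1`
(`Submodule.finrank_lt_finrank_of_lt`), so `Z = ⊤` (`Submodule.eq_top_of_finrank_eq`). -/
theorem exists_cyclic [Fintype F] [Fact n.Prime] (hn3 : 3 < n) (hnF : (n : F) ≠ 0)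
    (hi : oq F n = n - 1) (T : Module.End F (Fin n → F)) (hT : T ^ n = 1) (hne : T ≠ 1) :
    ∃ v : Fin n → F, Submodule.span F (Set.range fun j : Fin n => (T ^ (j : ℕ)) v) = ⊤ := by
  obtain ⟨v0, W, hv0, hTv0, hW, hWd, hfix⟩ := fx_structure hn3 hnF hi T hT hne
  have hWpos : 0 < Module.finrank F W := by omega
  rw [Module.finrank_pos_iff_exists_ne_zero] at hWpos
  obtain ⟨⟨w, hwW⟩, hw0'⟩ := hWpos
  have hw0 : w ≠ 0 := fun h => hw0' (Subtype.ext h)
  refine ⟨v0 + w, ?_⟩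
  set Z := Submodule.span F (Set.range fun j : Fin n => (T ^ (j : ℕ)) (v0 + w)) with hZ
  have hZinv : Inv T Z := span_orbit_inv T hT (v0 + w)
  have hpowv0 : ∀ j : ℕ, (T ^ j) v0 = v0 := by
    intro j
    induction j with
    | zero => simp
    | succ j ih => rw [pow_succ, Module.End.mul_apply, hTv0, ih]
  have hpowW : ∀ j : ℕ, (T ^ j) w ∈ W := by
    intro j
    induction j with
    | zero => simpa using hwW
    | succ j ih => rw [pow_succ', Module.End.mul_apply]; exact hW _ ih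
  have hmemZ : ∀ j, j < n → (T ^ j) (v0 + w) ∈ Z := fun j hj =>
    Submodule.subset_span ⟨⟨j, hj⟩, rfl⟩
  have hsumZ : ∑ j ∈ Finset.range n, (T ^ j) (v0 + w) ∈ Z :=
    Submodule.sum_mem _ fun j hj => hmemZ j (Finset.mem_range.mp hj)
  have hsumW : ∑ j ∈ Finset.range n, (T ^ j) w = 0 :=
    hfix _ (Submodule.sum_mem _ fun j _ => hpowW j) (sum_pow_fixed T hT w)
  have hsum : ∑ j ∈ Finset.range n, (T ^ j) (v0 + w) = (n : F) • v0 := by
    simp only [map_add, Finset.sum_add_distrib, hsumW, add_zero, hpowv0, Finset.sum_const,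
      Finset.card_range]
    rw [Nat.cast_smul_eq_nsmul]
  have hv0Z : v0 ∈ Z := by
    rw [hsum] at hsumZ
    have := Z.smul_mem (n : F)⁻¹ hsumZ
    rwa [smul_smul, inv_mul_cancel₀ hnF, one_smul] at this
  have hvZ : v0 + w ∈ Z := by
    have := hmemZ 0 (by omega)
    simpa using this
  have hwZ : w ∈ Z := by
    have := Z.sub_mem hvZ hv0Z
    rwa [add_sub_cancel_left] at this
  have hZW : Z ⊓ W = W := by
    apply inv_eq_of_le hi T hT W hWd hfix _ inf_le_right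
    · intro x hx
      exact ⟨hZinv x hx.1, hW x hx.2⟩
    · intro hbot
      have : w ∈ Z ⊓ W := ⟨hwZ, hwW⟩
      rw [hbot, Submodule.mem_bot] at this
      exact hw0 this
  have hWZ : W ≤ Z := hZW ▸ inf_le_left
  have hv0W : v0 ∉ W := fun h => hv0 (hfix v0 h hTv0)
  have hlt : W < Z := lt_of_le_of_ne hWZ (fun h => hv0W (h ▸ hv0Z))
  have hfr := Submodule.finrank_lt_finrank_of_lt hlt
  apply Submodule.eq_top_of_finrank_eq
  have hle := Submodule.finrank_le Z
  rw [Module.finrank_fin_fun] at hle ⊢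
  omega

end Cfsg.Agent.Lib.Helper51.Sing
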