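import Cfsg.Agent.Lib.Helper51.Sing.Base

set_option autoImplicit false

namespace Cfsg.Agent.Lib.Helper51.Sing

open Cfsg Cfsg.Geo Matrix Cfsg.Agent.Lib.Helper67.Elus
open scoped MatrixGroups

variable {F : Type*} [Field F] {n : ℕ} {K : Subalgebra F (Matrix (Fin n) (Fin n) F)}

/-- [F1] `↑h⁻¹ = c⁻¹ • ↑g⁻¹` (uniqueness of inverses), so `h k h⁻¹ = g k g⁻¹`. -/
theorem smul_mem_normalizer (g : GL (Fin n) F) (hg : g ∈ subalgebraNormalizer K) (c : F)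
    (hc : c ≠ 0) (h : GL (Fin n) F)
    (hh : (h : Matrix (Fin n) (Fin n) F) = c • (g : Matrix (Fin n) (Fin n) F)) :
    h ∈ subalgebraNormalizer K := by
  have hgi : (g : Matrix (Fin n) (Fin n) F) * ((g⁻¹ : GL (Fin n) F) : Matrix (Fin n) (Fin n) F) = 1 := by
    rw [← Units.val_mul, mul_inv_cancel, Units.val_one]
  have hinv : ((h⁻¹ : GL (Fin n) F) : Matrix (Fin n) (Fin n) F)
      = c⁻¹ • ((g⁻¹ : GL (Fin n) F) : Matrix (Fin n) (Fin n) F) := by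
    have h1 : (h : Matrix (Fin n) (Fin n) F) * (c⁻¹ • ((g⁻¹ : GL (Fin n) F) : Matrix (Fin n) (Fin n) F)) = 1 := by
      rw [hh, Matrix.smul_mul, Matrix.mul_smul, smul_smul, mul_inv_cancel₀ hc, one_smul, hgi]
    have h2 : ((h⁻¹ : GL (Fin n) F) : Matrix (Fin n) (Fin n) F) * (h : Matrix (Fin n) (Fin n) F) = 1 := by
      rw [← Units.val_mul, inv_mul_cancel, Units.val_one]
    calc ((h⁻¹ : GL (Fin n) F) : Matrix (Fin n) (Fin n) F)
        = ((h⁻¹ : GL (Fin n) F) : Matrix (Fin n) (Fin n) F) * ((h : Matrix (Fin n) (Fin n) F) *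
          (c⁻¹ • ((g⁻¹ : GL (Fin n) F) : Matrix (Fin n) (Fin n) F))) := by rw [h1, mul_one]
      _ = _ := by rw [← mul_assoc, h2, one_mul]
  intro k
  have e : (h : Matrix (Fin n) (Fin n) F) * k * ((h⁻¹ : GL (Fin n) F) : Matrix (Fin n) (Fin n) F)
      = (g : Matrix (Fin n) (Fin n) F) * k * ((g⁻¹ : GL (Fin n) F) : Matrix (Fin n) (Fin n) F) := by
    rw [hh, hinv, Matrix.smul_mul, Matrix.smul_mul, Matrix.mul_smul, smul_smul, mul_inv_cancel₀ hc,
      one_smul]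
  rw [e]
  exact hg k

end Cfsg.Agent.Lib.Helper51.Sing
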