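import Cfsg.Agent.Lib.Helper51.Sing.Base
import Cfsg.Agent.Lib.Helper67.Elus.POW

set_option autoImplicit false

namespace Cfsg.Agent.Lib.Helper51.Sing

open Cfsg Cfsg.Geo Matrix Cfsg.Agent.Lib.Helper67.Elus
open scoped MatrixGroups

variable {F : Type*} [Field F] {n : ℕ} {K : Subalgebra F (Matrix (Fin n) (Fin n) F)}

/-- [F2] `M0 := LinearMap.toMatrix' P0`, invertible, `M0 * x = c • (g * M0)`.  `d := det M0 ≠ 0`;
`exists_pow_eq` gives `l` with `l ^ n = d⁻¹`; `Q : SL := ⟨l • M0, by det_smul⟩`; `P := Q⁻¹`;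
`P⁻¹ * x * P = Q x Q⁻¹`, whose matrix is `c • g` since `Q x = c • g Q`. -/
theorem conj_SL [Fintype F] (hn0 : 0 < n) (hcop : Nat.Coprime n (Fintype.card F - 1))
    (x : Matrix.SpecialLinearGroup (Fin n) F) (c : F) (g : GL (Fin n) F)
    (P0 : (Fin n → F) ≃ₗ[F] (Fin n → F))
    (h : ∀ u, P0 ((x : Matrix (Fin n) (Fin n) F) *ᵥ u) =
      c • ((g : Matrix (Fin n) (Fin n) F) *ᵥ P0 u)) :
    ∃ P : Matrix.SpecialLinearGroup (Fin n) F,
      ((P⁻¹ * x * P : Matrix.SpecialLinearGroup (Fin n) F) : Matrix (Fin n) (Fin n) F) =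
        c • (g : Matrix (Fin n) (Fin n) F) := by
  classical
  set M0 : Matrix (Fin n) (Fin n) F := LinearMap.toMatrix' P0.toLinearMap with hM0
  set M1 : Matrix (Fin n) (Fin n) F := LinearMap.toMatrix' P0.symm.toLinearMap with hM1
  have h01 : M0 * M1 = 1 := by
    rw [hM0, hM1, ← LinearMap.toMatrix'_comp]
    simp
  have hM0v : ∀ u, M0 *ᵥ u = P0 u := by
    intro u
    rw [hM0, LinearMap.toMatrix'_mulVec]
    rfl
  have hdet : M0.det ≠ 0 := by
    intro h0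
    have := congrArg Matrix.det h01
    rw [Matrix.det_mul, h0, zero_mul, Matrix.det_one] at this
    exact zero_ne_one this
  have hcomm : M0 * (x : Matrix (Fin n) (Fin n) F) = c • ((g : Matrix (Fin n) (Fin n) F) * M0) := by
    rw [Matrix.ext_iff_mulVec]
    intro u
    rw [← Matrix.mulVec_mulVec, hM0v, h, Matrix.smul_mulVec, ← Matrix.mulVec_mulVec, hM0v]
  obtain ⟨l, hl⟩ := exists_pow_eq hn0 hcop (M0.det)⁻¹
  let Q : Matrix.SpecialLinearGroup (Fin n) F := ⟨l • M0, by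
    rw [Matrix.det_smul, Fintype.card_fin, hl, inv_mul_cancel₀ hdet]⟩
  refine ⟨Q⁻¹, ?_⟩
  rw [inv_inv]
  have hQQ : (Q : Matrix (Fin n) (Fin n) F) * ((Q⁻¹ : Matrix.SpecialLinearGroup (Fin n) F) : Matrix (Fin n) (Fin n) F) = 1 := by
    rw [← Matrix.SpecialLinearGroup.coe_mul, mul_inv_cancel, Matrix.SpecialLinearGroup.coe_one]
  have hQx : (Q : Matrix (Fin n) (Fin n) F) * (x : Matrix (Fin n) (Fin n) F)
      = (c • (g : Matrix (Fin n) (Fin n) F)) * (Q : Matrix (Fin n) (Fin n) F) := by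
    show (l • M0) * (x : Matrix (Fin n) (Fin n) F) = (c • (g : Matrix (Fin n) (Fin n) F)) * (l • M0)
    rw [Matrix.smul_mul, hcomm, Matrix.smul_mul, Matrix.mul_smul, smul_comm]
  rw [Matrix.SpecialLinearGroup.coe_mul, Matrix.SpecialLinearGroup.coe_mul, hQx, mul_assoc, hQQ,
    mul_one]

end Cfsg.Agent.Lib.Helper51.Sing
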