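/-
helper51: row S5970, assembly of the pieces.
-/
import Cfsg.Agent.Lib.Helper51.Sing.B2
import Cfsg.Agent.Lib.Helper51.Sing.C1
import Cfsg.Agent.Lib.Helper51.Sing.C2a
import Cfsg.Agent.Lib.Helper51.Sing.C2b
import Cfsg.Agent.Lib.Helper51.Sing.D1
import Cfsg.Agent.Lib.Helper51.Sing.D2
import Cfsg.Agent.Lib.Helper51.Sing.D3
import Cfsg.Agent.Lib.Helper51.Sing.D4
import Cfsg.Agent.Lib.Helper51.Sing.D5
import Cfsg.Agent.Lib.Helper51.Sing.E3
import Cfsg.Agent.Lib.Helper51.Sing.E4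
import Cfsg.Agent.Lib.Helper51.Sing.F1
import Cfsg.Agent.Lib.Helper51.Sing.F2
import Cfsg.Agent.Lib.Helper67.Elus.S6
import Cfsg.Agent.Lib.Helper67.Elus.Bridge

set_option autoImplicit false

namespace Cfsg.Agent.Lib.Helper51.Sing

open Cfsg Cfsg.Geo Matrix Cfsg.Agent.Lib.Helper67.Elus
open scoped MatrixGroups

variable {F : Type*} [Field F] {n : ℕ} {K : Subalgebra F (Matrix (Fin n) (Fin n) F)}

theorem exists_small [Fintype F] [Fact n.Prime] (hn3 : 3 < n) (hnF : (n : F) ≠ 0)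
    (hi : oq F n ≠ n - 1) :
    ∃ (m : ℕ) (T0 : Module.End F (Fin m → F)), m + 2 ≤ n ∧ T0 ^ n = 1 ∧ LinearMap.det T0 = 1 ∧
      T0 ≠ 1 := by
  obtain ⟨t, ht⟩ := oq_dvd_pred (F := F) (n := n) hnF
  have h0 : oq F n ≠ 0 := by
    intro h
    rw [h, zero_mul] at ht
    omega
  have ht2 : 2 ≤ t := by
    rcases Nat.lt_or_ge t 2 with h | h
    · interval_cases t
      · omega
      · rw [mul_one] at ht
        exact absurd ht.symm hi
    · exact h
  have hle : oq F n * 2 ≤ n - 1 := by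
    rw [ht]
    exact Nat.mul_le_mul_left _ ht2
  rcases Nat.lt_or_ge (oq F n) 2 with h | h
  · have h1 : oq F n = 1 := by omega
    obtain ⟨T0, h2, h3, h4⟩ := exists_small_one (F := F) (n := n) h1
    exact ⟨2, T0, by omega, h2, h3, h4⟩
  · obtain ⟨T0, h2, h3, -, h4⟩ := exists_order_r (F := F) (r := n) hnF (oq F n) h le_rfl
    refine ⟨oq F n, T0, by omega, h2, h3, ?_⟩
    intro h5
    exact h4 1 (by rw [h5, one_smul])

theorem exists_bad [Fintype F] [Fact n.Prime] (hn3 : 3 < n) (hnF : (n : F) ≠ 0)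
    (hi : oq F n ≠ n - 1) :
    ∃ x : Matrix.SpecialLinearGroup (Fin n) F,
      ((x ^ n : Matrix.SpecialLinearGroup (Fin n) F) : Matrix (Fin n) (Fin n) F) = 1 ∧
      (∀ z : F, (x : Matrix (Fin n) (Fin n) F) ≠ z • (1 : Matrix (Fin n) (Fin n) F)) ∧
      ∃ v w : Fin n → F, v ≠ 0 ∧ (∀ a : F, w ≠ a • v) ∧
        (x : Matrix (Fin n) (Fin n) F) *ᵥ v = v ∧ (x : Matrix (Fin n) (Fin n) F) *ᵥ w = w := by
  obtain ⟨m, T0, hm, h1, h2, h3⟩ := exists_small (F := F) (n := n) hn3 hnF hi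
  obtain ⟨T, hT, hdet, hns, v, w, hv, hw, hTv, hTw⟩ := pad (n := n) hm T0 h1 h2 h3
  have hlin : Matrix.toLin' (LinearMap.toMatrix' T) = T := Matrix.toLin'_toMatrix' T
  obtain ⟨x, hx⟩ : ∃ x : Matrix.SpecialLinearGroup (Fin n) F,
      (x : Matrix (Fin n) (Fin n) F) = LinearMap.toMatrix' T :=
    ⟨⟨LinearMap.toMatrix' T, by rw [LinearMap.det_toMatrix']; exact hdet⟩, rfl⟩
  refine ⟨x, ?_, ?_, v, w, hv, hw, ?_, ?_⟩
  · rw [Matrix.SpecialLinearGroup.coe_pow, hx]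
    apply Matrix.toLin'.injective
    rw [toLin'_pow_B, hlin, hT, Matrix.toLin'_one]
    rfl
  · intro z hz
    apply hns z
    rw [hx] at hz
    rw [← hlin, hz, toLin'_smul_one_B]
  · rw [hx, ← Matrix.toLin'_apply, hlin, hTv]
  · rw [hx, ← Matrix.toLin'_apply, hlin, hTw]

theorem exists_frob [Fintype F] (hn : 2 ≤ n) (hK : IsFieldSubalgebra n K) :
    ∃ g : GL (Fin n) F, g ∈ subalgebraNormalizer K ∧ g ^ n = 1 ∧ g ≠ 1 := by
  have : NeZero n := ⟨by omega⟩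
  obtain ⟨u, hu⟩ : ∃ u : Fin n → F, u ≠ 0 := ⟨fun _ => 1, fun h => one_ne_zero (congrFun h 0)⟩
  obtain ⟨G, hG⟩ := exists_frobLin hK hu
  have hGn := frobLin_pow_n hK hu G hG
  have hG1 := frobLin_ne_one hn hK hu G hG
  have hGm := frobLin_mul hK hu G hG
  have hlin : Matrix.toLin' (LinearMap.toMatrix' G) = G := Matrix.toLin'_toMatrix' G
  have hMn : (LinearMap.toMatrix' G) ^ n = 1 := by
    apply Matrix.toLin'.injective
    rw [toLin'_pow_B, hlin, hGn, Matrix.toLin'_one]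
    rfl
  obtain ⟨m, rfl⟩ : ∃ m, n = m + 1 := ⟨n - 1, by omega⟩
  let g : GL (Fin (m + 1)) F := ⟨LinearMap.toMatrix' G, (LinearMap.toMatrix' G) ^ m,
    by rw [← pow_succ', hMn], by rw [← pow_succ, hMn]⟩
  have hgn : g ^ (m + 1) = 1 := Units.ext (by rw [Units.val_pow_eq_pow_val]; exact hMn)
  refine ⟨g, mem_normalizer_of_semilinear g m (Fintype.card F) hgn ?_, hgn, ?_⟩
  · intro k hk
    show LinearMap.toMatrix' G * k = k ^ Fintype.card F * LinearMap.toMatrix' G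
    apply Matrix.toLin'.injective
    apply LinearMap.ext
    intro x
    rw [Matrix.toLin'_mul, Matrix.toLin'_mul, hlin, LinearMap.comp_apply, LinearMap.comp_apply,
      Matrix.toLin'_apply, Matrix.toLin'_apply, hGm k hk x]
  · intro h
    apply hG1
    have h1 : LinearMap.toMatrix' G = 1 := congrArg Units.val h
    rw [← hlin, h1, Matrix.toLin'_one]
    rfl

end Cfsg.Agent.Lib.Helper51.Sing
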