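import Cfsg.Agent.Lib.Helper51.Sing.Base

set_option autoImplicit false

namespace Cfsg.Agent.Lib.Helper51.Sing

open Cfsg Cfsg.Geo Matrix Cfsg.Agent.Lib.Helper67.Elus
open scoped MatrixGroups

variable {F : Type*} [Field F] {n : ℕ} {K : Subalgebra F (Matrix (Fin n) (Fin n) F)}

/-- [B1] `S := (Subalgebra.centralizer F {G}).comap K.val : Subalgebra F K` is `⊥` or `⊤` by
`Subalgebra.isSimpleOrder_of_finrank_prime F K` (finrank = n prime; `IsDomain K` from
`(isField_K hK).isDomain`), then `eq_bot_or_eq_top S`.  `⊥`: `Algebra.mem_bot` gives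
`algebraMap F K a = ⟨k, hk⟩`, i.e. `k = a • 1`.  `⊤`: everything commutes. -/
theorem cent_cases [NeZero n] (hn : n.Prime) (hK : IsFieldSubalgebra n K)
    (G : Matrix (Fin n) (Fin n) F) :
    (∀ k ∈ K, G * k = k * G → ∃ a : F, k = a • (1 : Matrix (Fin n) (Fin n) F)) ∨
      (∀ k ∈ K, G * k = k * G) := by
  have hdom : IsDomain K := (isField_K hK).isDomain
  have hsimp := Subalgebra.isSimpleOrder_of_finrank_prime F K (by rw [hK.finrank_eq]; exact hn)
  have hmem : ∀ k : K, k ∈ (Subalgebra.centralizer F {G}).comap K.val ↔ G * k.1 = k.1 * G := by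
    intro k
    rw [Subalgebra.mem_comap, Subalgebra.mem_centralizer_iff]
    constructor
    · intro h
      exact h G rfl
    · intro h y hy
      rw [Set.mem_singleton_iff.1 hy]
      exact h
  rcases hsimp.eq_bot_or_eq_top ((Subalgebra.centralizer F {G}).comap K.val) with h | h
  · left
    intro k hk hG
    have h1 : (⟨k, hk⟩ : K) ∈ (Subalgebra.centralizer F {G}).comap K.val := (hmem _).2 hG
    rw [h, Algebra.mem_bot] at h1
    obtain ⟨a, ha⟩ := h1
    refine ⟨a, ?_⟩
    have h2 := congrArg Subtype.val ha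
    rw [Algebra.algebraMap_eq_smul_one] at h2
    exact h2.symm
  · right
    intro k hk
    have h1 : (⟨k, hk⟩ : K) ∈ (Subalgebra.centralizer F {G}).comap K.val := by
      rw [h]; exact Algebra.mem_top
    exact (hmem _).1 h1

end Cfsg.Agent.Lib.Helper51.Sing
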