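/-
helper51: row S5970 (elements of order `n` of `PSL_n(q)` and the normaliser of a Singer cycle).
Basic facts on a field subalgebra `K` of degree `n` of the `n × n` matrices.
-/
import Cfsg.Prelude.Def_GeometricClasses
import Cfsg.Agent.Lib.Helper67.Elus.Defs

set_option autoImplicit false

namespace Cfsg.Agent.Lib.Helper51.Sing

open Cfsg Cfsg.Geo Matrix

variable {F : Type*} [Field F] {n r : ℕ} {K : Subalgebra F (Matrix (Fin n) (Fin n) F)}

theorem isField_K [NeZero n] (hK : IsFieldSubalgebra r K) : IsField K where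
  exists_pair_ne := ⟨0, 1, fun h => zero_ne_one (congrArg Subtype.val h)⟩
  mul_comm := fun a b => Subtype.ext (hK.comm _ a.2 _ b.2)
  mul_inv_cancel := fun {a} ha => by
    obtain ⟨y, hy, hxy⟩ := hK.inv a a.2 (fun h => ha (Subtype.ext h))
    exact ⟨⟨y, hy⟩, Subtype.ext hxy⟩

/-- the orbit map `k ↦ k *ᵥ u` -/
def orbMap (K : Subalgebra F (Matrix (Fin n) (Fin n) F)) (u : Fin n → F) : K →ₗ[F] (Fin n → F) where
  toFun k := k.1 *ᵥ u
  map_add' a b := by simp [Matrix.add_mulVec]
  map_smul' c a := by simp [Matrix.smul_mulVec]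

theorem orbMap_apply (u : Fin n → F) (k : K) : orbMap K u k = k.1 *ᵥ u := rfl

theorem orbMap_injective (hK : IsFieldSubalgebra r K) {u : Fin n → F} (hu : u ≠ 0) :
    Function.Injective (orbMap K u) := by
  rw [← LinearMap.ker_eq_bot, LinearMap.ker_eq_bot']
  intro k hk
  by_contra hk0
  have hk0' : k.1 ≠ 0 := fun h => hk0 (Subtype.ext h)
  obtain ⟨y, hy, hky⟩ := hK.inv k.1 k.2 hk0'
  apply hu
  have h1 : (y * k.1) *ᵥ u = 0 := by
    rw [← Matrix.mulVec_mulVec]
    have : k.1 *ᵥ u = 0 := hk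
    rw [this, Matrix.mulVec_zero]
  rw [hK.comm y hy k.1 k.2, hky, Matrix.one_mulVec] at h1
  exact h1

/-- `K` acts freely on the non-zero vectors -/
theorem K_mulVec_inj (hK : IsFieldSubalgebra r K) {u : Fin n → F} (hu : u ≠ 0)
    {k k' : Matrix (Fin n) (Fin n) F} (hk : k ∈ K) (hk' : k' ∈ K) (h : k *ᵥ u = k' *ᵥ u) :
    k = k' :=
  congrArg Subtype.val (orbMap_injective hK hu (a₁ := ⟨k, hk⟩) (a₂ := ⟨k', hk'⟩) h)

theorem orbMap_surjective (hK : IsFieldSubalgebra n K) {u : Fin n → F} (hu : u ≠ 0) :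
    Function.Surjective (orbMap K u) := by
  have h1 : Module.finrank F K = Module.finrank F (Fin n → F) := by
    rw [hK.finrank_eq, Module.finrank_fin_fun]
  exact (LinearMap.injective_iff_surjective_of_finrank_eq_finrank h1).1 (orbMap_injective hK hu)

/-- `K` of degree `n` is transitive on the non-zero vectors: `V = K u` -/
theorem exists_K_mulVec (hK : IsFieldSubalgebra n K) {u : Fin n → F} (hu : u ≠ 0)
    (v : Fin n → F) : ∃ k ∈ K, v = k *ᵥ u := by
  obtain ⟨k, hk⟩ := orbMap_surjective hK hu v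
  exact ⟨k.1, k.2, hk.symm⟩

/-- the orbit map as a linear equivalence -/
noncomputable def orbE (hK : IsFieldSubalgebra n K) {u : Fin n → F} (hu : u ≠ 0) :
    K ≃ₗ[F] (Fin n → F) :=
  LinearEquiv.ofBijective (orbMap K u) ⟨orbMap_injective hK hu, orbMap_surjective hK hu⟩

theorem orbE_apply (hK : IsFieldSubalgebra n K) {u : Fin n → F} (hu : u ≠ 0) (k : K) :
    orbE hK hu k = k.1 *ᵥ u := rfl

theorem card_K [Fintype F] (hK : IsFieldSubalgebra r K) : Nat.card K = Fintype.card F ^ r := by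
  rw [Module.natCard_eq_pow_finrank (K := F), hK.finrank_eq, Nat.card_eq_fintype_card]

theorem card_units_K [NeZero n] [Fintype F] (hK : IsFieldSubalgebra r K) :
    Nat.card (K)ˣ = Fintype.card F ^ r - 1 := by
  let _ := (isField_K hK).toField
  rw [Nat.card_units, card_K hK]

theorem K_pow_card [NeZero n] [Fintype F] (hK : IsFieldSubalgebra r K)
    {k : Matrix (Fin n) (Fin n) F} (hk : k ∈ K) : k ^ (Fintype.card F ^ r) = k := by
  classical
  let _ := (isField_K hK).toField
  have : Fintype K := Fintype.ofFinite K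
  have h1 := FiniteField.pow_card (⟨k, hk⟩ : K)
  rw [← Nat.card_eq_fintype_card, card_K hK] at h1
  exact congrArg Subtype.val h1

theorem K_add_pow_card [Fintype F] (hK : IsFieldSubalgebra r K)
    {a b : Matrix (Fin n) (Fin n) F} (ha : a ∈ K) (hb : b ∈ K) :
    (a + b) ^ Fintype.card F = a ^ Fintype.card F + b ^ Fintype.card F := by
  obtain ⟨p, hchar⟩ := CharP.exists F
  have := hchar
  obtain ⟨f, hp, hq⟩ := FiniteField.card F p
  have : Fact p.Prime := ⟨hp⟩
  rcases Nat.eq_zero_or_pos n with h0 | h0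
  · subst h0
    exact Subsingleton.elim _ _
  have : NeZero n := ⟨h0.ne'⟩
  have : CharP (Matrix (Fin n) (Fin n) F) p := inferInstance
  rw [hq]
  exact add_pow_char_pow_of_commute p f (hK.comm a ha b hb)

theorem smul_pow_card [Fintype F] (c : F) (a : Matrix (Fin n) (Fin n) F) :
    (c • a) ^ Fintype.card F = c • a ^ Fintype.card F := by
  rw [smul_pow, FiniteField.pow_card]

end Cfsg.Agent.Lib.Helper51.Sing
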