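import Cfsg.Agent.Lib.Helper51.Sing.Base
import Cfsg.Agent.Lib.Helper67.Elus.S1
import Cfsg.Agent.Lib.Helper67.Elus.S2

set_option autoImplicit false

namespace Cfsg.Agent.Lib.Helper51.Sing

open Cfsg Cfsg.Geo Matrix Cfsg.Agent.Lib.Helper67.Elus
open scoped MatrixGroups

variable {F : Type*} [Field F] {n : ℕ} {K : Subalgebra F (Matrix (Fin n) (Fin n) F)}

/-- [E1] `Fx T` is `T`-invariant; `exists_inv_compl (c := 1)` gives an invariant complement `W`.
`w ∈ W`, `T w = w` gives `w ∈ Fx T ⊓ W = ⊥`.  `W ≠ ⊥` (else `Fx T = ⊤`, `T = 1`).  `oq_dvd_finrank`: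
`n - 1 ∣ finrank W`, `0 < finrank W ≤ n < 2 (n - 1)`, so `finrank W = n - 1`;
`Submodule.finrank_add_eq_of_isCompl` gives `finrank (Fx T) = 1`, so `Fx T ≠ ⊥`: pick `v0`. -/
theorem fx_structure [Fintype F] [Fact n.Prime] (hn3 : 3 < n) (hnF : (n : F) ≠ 0)
    (hi : oq F n = n - 1) (T : Module.End F (Fin n → F)) (hT : T ^ n = 1) (hne : T ≠ 1) :
    ∃ (v0 : Fin n → F) (W : Submodule F (Fin n → F)), v0 ≠ 0 ∧ T v0 = v0 ∧ Inv T W ∧
      Module.finrank F W = n - 1 ∧ (∀ w ∈ W, T w = w → w = 0) := by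
  have hmemFx : ∀ w, w ∈ Fx T ↔ T w = w := by
    intro w
    rw [Fx, LinearMap.mem_ker, LinearMap.sub_apply, Module.End.one_apply, sub_eq_zero]
  have hFxInv : Inv T (Fx T) := by
    intro w hw
    rw [hmemFx] at hw ⊢
    rw [hw, hw]
  obtain ⟨W, hW, hcompl⟩ := exists_inv_compl (c := (1 : F)) (by rw [hT, one_smul]) one_ne_zero hnF hFxInv
  have hfix : ∀ w ∈ W, T w = w → w = 0 := by
    intro w hw hTw
    have : w ∈ Fx T ⊓ W := ⟨(hmemFx w).mpr hTw, hw⟩
    rwa [hcompl.inf_eq_bot, Submodule.mem_bot] at this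
  have hW0 : W ≠ ⊥ := by
    intro hbot
    apply hne
    have htop : Fx T = ⊤ := by
      have := hcompl.sup_eq_top
      rwa [hbot, sup_bot_eq] at this
    apply LinearMap.ext
    intro x
    rw [Module.End.one_apply, ← hmemFx, htop]
    exact Submodule.mem_top
  have hdvd := oq_dvd_finrank hT hW hfix
  rw [hi] at hdvd
  have hpos : 0 < Module.finrank F W := by
    rw [Module.finrank_pos_iff_exists_ne_zero]
    obtain ⟨z, hz, hz0⟩ := Submodule.exists_mem_ne_zero_of_ne_bot hW0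
    exact ⟨⟨z, hz⟩, fun h => hz0 (congrArg Subtype.val h)⟩
  have hle : Module.finrank F W ≤ n := by
    have := Submodule.finrank_le W
    rwa [Module.finrank_fin_fun] at this
  have hWd : Module.finrank F W = n - 1 := by
    obtain ⟨c, hc⟩ := hdvd
    have hc1 : c = 1 := by
      rcases c with _ | _ | c
      · rw [mul_zero] at hc; omega
      · rfl
      · exfalso
        have h5 : (n - 1) * 2 ≤ (n - 1) * (c + 1 + 1) := Nat.mul_le_mul_left _ (by omega)
        rw [← hc] at h5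
        omega
    rw [hc, hc1, mul_one]
  have hsum := Submodule.finrank_add_eq_of_isCompl hcompl
  rw [Module.finrank_fin_fun, hWd] at hsum
  have hFx1 : 0 < Module.finrank F (Fx T) := by omega
  rw [Module.finrank_pos_iff_exists_ne_zero] at hFx1
  obtain ⟨v0, hv0⟩ := hFx1
  exact ⟨v0.1, W, fun h => hv0 (Subtype.ext h), (hmemFx _).mp v0.2, hW, hWd, hfix⟩

end Cfsg.Agent.Lib.Helper51.Sing
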