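import Cfsg.Agent.Lib.Helper51.Sing.Base

set_option autoImplicit false

namespace Cfsg.Agent.Lib.Helper51.Sing

open Cfsg Cfsg.Geo Matrix Cfsg.Agent.Lib.Helper67.Elus
open scoped MatrixGroups

variable {F : Type*} [Field F] {n : ℕ} {K : Subalgebra F (Matrix (Fin n) (Fin n) F)}

/-- [E4] `bT := basisOfTopLeSpanOfCardEqFinrank (fun j : Fin n => (T ^ (j : ℕ)) v) hv.ge (by simp)`, same `bS`;
`P := bT.equiv bS (Equiv.refl _)`; `P (T ^ j v) = S ^ j w` for `j < n`, hence for all `j : ℕ`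
(`pow_eq_pow_mod j hT`); `P ∘ T = S ∘ P` on the basis (`bT.ext`). -/
theorem conj_of_cyclic (T S : Module.End F (Fin n → F)) (hT : T ^ n = 1) (hS : S ^ n = 1)
    (v w : Fin n → F)
    (hv : Submodule.span F (Set.range fun j : Fin n => (T ^ (j : ℕ)) v) = ⊤)
    (hw : Submodule.span F (Set.range fun j : Fin n => (S ^ (j : ℕ)) w) = ⊤) :
    ∃ P : (Fin n → F) ≃ₗ[F] (Fin n → F), ∀ u, P (T u) = S (P u) := by
  classical
  let bT := basisOfTopLeSpanOfCardEqFinrank (fun j : Fin n => (T ^ (j : ℕ)) v) hv.ge (by simp)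
  let bS := basisOfTopLeSpanOfCardEqFinrank (fun j : Fin n => (S ^ (j : ℕ)) w) hw.ge (by simp)
  have hbT : ∀ j : Fin n, bT j = (T ^ (j : ℕ)) v := fun j => by
    simp [bT, coe_basisOfTopLeSpanOfCardEqFinrank]
  have hbS : ∀ j : Fin n, bS j = (S ^ (j : ℕ)) w := fun j => by
    simp [bS, coe_basisOfTopLeSpanOfCardEqFinrank]
  let P := bT.equiv bS (Equiv.refl _)
  have hP : ∀ j : Fin n, P ((T ^ (j : ℕ)) v) = (S ^ (j : ℕ)) w := by
    intro j
    rw [← hbT, ← hbS]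
    simp [P]
  refine ⟨P, ?_⟩
  have hcomp : P.toLinearMap ∘ₗ T = S ∘ₗ P.toLinearMap := by
    apply bT.ext
    intro j
    simp only [LinearMap.comp_apply, LinearEquiv.coe_coe]
    rw [hbT, hP j, ← Module.End.mul_apply, ← Module.End.mul_apply, ← pow_succ', ← pow_succ']
    by_cases hj : (j : ℕ) + 1 < n
    · exact hP ⟨(j : ℕ) + 1, hj⟩
    · have hj' : (j : ℕ) + 1 = n := by have := j.2; omega
      have hn : 0 < n := by omega
      rw [hj', hT, hS]
      simpa using hP ⟨0, hn⟩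
  exact fun u => LinearMap.congr_fun hcomp u

end Cfsg.Agent.Lib.Helper51.Sing
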